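import Cfsg.Agent.H41.S6Kit2

/-! An involution with centralizer `2 × Sp₆(2)`: the end of case I (piece I2). -/

set_option autoImplicit false
set_option maxRecDepth 100000
set_option synthInstance.maxSize 4096
set_option linter.unusedSectionVars false

namespace Cfsg.Agent.H83.S6I

open Cfsg Subgroup
open Cfsg.Agent.H44 Cfsg.Agent.H55.Sp6 Cfsg.Agent.H2.L3E Cfsg.Agent.H41.S6

universe u

theorem key1 : ∀ u < 8, u ≠ 0 → ∀ a < 8, (∀ v < 8, ∃ b < 8,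
    bc a ^^^ bc b ^^^ bc (a ^^^ b) = bc u ^^^ bc v ^^^ bc (u ^^^ v)) → a = u := by decide +kernel

theorem key2 : ∀ w < 8, ∀ a < 8, ∀ b < 8, ∀ c < 8, (bc w ^^^ bc a ^^^ (bc b ^^^ bc c)) % 8 = 0 →
    bc (a ^^^ w) ^^^ bc (b ^^^ w) ^^^ bc (a ^^^ w ^^^ (b ^^^ w)) =
      bc w ^^^ bc a ^^^ (bc b ^^^ bc c) := by decide +kernel

theorem key3 : ∀ u < 8, ∀ v < 8, u ^^^ v < 8 ∧ bc u ^^^ bc v ^^^ bc (u ^^^ v) < 64 ∧
    (bc u ^^^ bc v ^^^ bc (u ^^^ v)) % 8 = 0 ∧ (u ^^^ v = 0 → u = v) ∧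
    bc v ^^^ bc (u ^^^ v) = bc u ^^^ (bc u ^^^ bc v ^^^ bc (u ^^^ v)) ∧
    (u ≠ 0 → bc u % 8 ≠ 0 ∧ (v ≠ 0 → v ≠ u → ∃ x < 8, Ind u v x)) := by decide +kernel

theorem key4 : ∀ c < 64, (bc (c % 8) ^^^ c) % 8 = 0 := by decide +kernel

theorem key5 : ∀ w < 8, w ≠ 0 → ∀ d < 64, d % 8 ≠ 0 → (bc w ^^^ d) % 8 ≠ 0 →
    ∃ u < 8, ∃ v < 8, ∃ x < 8, Ind u v x ∧ ap u v x 0 0 0 w = w ∧
      (d ^^^ cjc (ap u v x 0 0 0) d) % 8 ≠ 0 ∧
      (bc w ^^^ d ^^^ cjc (ap u v x 0 0 0) d) % 8 ≠ 0 := by decide +kernel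

theorem g_zero : g 0 = 1 := g_bc (by omega)

theorem g_nLam {w : ℕ} (hw : w < 8) (w0 : w ≠ 0) : g w ∉ Lam := fun e =>
  ((key3 w hw 0 (by omega)).2.2.2.2.2 w0).1 ((ac_mem_Lam (bc_lt w hw)).1 (g_bc hw ▸ e))

variable {G : Type u} [Group G] [Finite G] {ι : Sp →* G} {t : G}

/-- `n ∈ N̂` has translation `b_w` -/
structure Tw (ι : Sp →* G) (t n : G) (w : ℕ) : Prop where
  mem : n ∈ Nh ι t
  lt : w < 8
  tr : n * t * n⁻¹ = t * ι (g w)

/-- moreover the square of `n` lies in `Λ` -/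
structure Good (ι : Sp →* G) (t n : G) (w : ℕ) : Prop extends Tw ι t n w where
  ne : w ≠ 0
  sq : ∃ l ∈ Lam, n * n = ι l

variable (h : Hy ι t) (nl : NL ι t) (ci : CI ι t)
include h

theorem xx (a b : Sp) : t * ι a * (t * ι b) = ι (a * b) := by
  rw [mul_assoc, ← mul_assoc (ι a), ← h.ct, mul_assoc, h.ttx, map_mul]

theorem A_Nh {a : Sp} (ha : a ∈ A) : ι a ∈ Nh ι t := h.E3_Nh (h.mem_E3.2 ⟨a, ha, .inl rfl⟩)

theorem t_Nh : t ∈ Nh ι t := h.E3_Nh (h.mem_E3.2 ⟨1, one_mem _, .inr (by simp)⟩)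

theorem Tw.mulA {n : G} {w : ℕ} (T : Tw ι t n w) {a : Sp} (ha : a ∈ A) : Tw ι t (n * ι a) w :=
  ⟨mul_mem T.mem (A_Nh h ha), T.lt, by
    rw [← T.tr]
    conv_rhs => rw [← h.conj_t a]
    group⟩

theorem Tw.mulT {n : G} {w : ℕ} (T : Tw ι t n w) : Tw ι t (n * t) w :=
  ⟨mul_mem T.mem (t_Nh h), T.lt, by rw [← T.tr]; group⟩

theorem Tw.conjP {n : G} {w : ℕ} (T : Tw ι t n w) {p : Sp} (hp : p ∈ P3) :
    Tw ι t (ι p * n * (ι p)⁻¹) (act p w) :=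
  ⟨h.P3_Nh hp T.mem, P3_lt hp T.lt, by
    rw [← conj_g, ← h.conj_tl, ← T.tr]
    conv_lhs => rw [← h.conj_t p]
    group⟩

theorem Tw.sqT {n : G} {w : ℕ} (T : Tw ι t n w) {q : Sp} (e : n * n = ι q) :
    n * t * (n * t) = ι (g w * q) := by
  calc _ = n * t * n⁻¹ * (n * n) * t := by group
    _ = _ := by rw [T.tr, e, mul_assoc t, ← map_mul, mul_assoc, ← h.ct, h.ttx]

include nl ci

theorem ex_w {y : G} (hy : y ∈ E3 ι t) (c : IsConj t y) : ∃ v < 8, y = t * ι (g v) := by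
  obtain ⟨a, ha, rfl | rfl⟩ := h.mem_E3.1 hy
  · exact absurd c (nl a)
  · obtain ⟨v, hv, rfl⟩ := (ci a ha).1 c
    exact ⟨v, hv, rfl⟩

theorem Tw.act {n : G} {w : ℕ} (T : Tw ι t n w) {u : ℕ} (hu : u < 8) :
    n * (t * ι (g u)) * n⁻¹ = t * ι (g (u ^^^ w)) := by
  by_cases u0 : u = 0
  · rw [u0, g_zero, map_one, mul_one, Nat.zero_xor, T.tr]
  have ex : ∀ v < 8, ∃ b < 8, n * (t * ι (g v)) * n⁻¹ = t * ι (g b) := fun v hv =>
    ex_w h nl ci (mem_NE.1 T.mem.1 _ (h.mem_E3.2 ⟨_, g_mem_A hv, .inr rfl⟩))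
      (((ci _ (g_mem_A hv)).2 ⟨v, hv, rfl⟩).trans (isConj_iff.2 ⟨n, rfl⟩))
  obtain ⟨a, ha, ea⟩ := ex u hu
  have hw := T.lt
  have := key1 u hu u0 _ (key3 a ha w hw).1 fun v hv => by
    obtain ⟨k1, k2, k3, -⟩ := key3 u hu v hv
    obtain ⟨b, hb, eb⟩ := ex v hv
    obtain ⟨c, hc, ec⟩ := ex _ k1
    have e1 : t * (t * ι (g u)) * (t * ι (g v) * (t * ι (g (u ^^^ v)))) =
        ι (ac (bc u ^^^ bc v ^^^ bc (u ^^^ v))) := by
      rw [h.ttx, xx h, ← map_mul, g_bc hu, g_bc hv, g_bc k1, ← mul_assoc,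
        ac_mul (bc_lt _ hu) (bc_lt _ hv), ac_mul (xor_lt (bc_lt _ hu) (bc_lt _ hv)) (bc_lt _ k1)]
    have e2 := (mem_Nh.1 T.mem).2 _ ((ac_mem_Lam k2).2 k3)
    rw [← mul_inv_eq_iff_eq_mul.symm.symm] at e2
    have e3 : n * ι (ac (bc u ^^^ bc v ^^^ bc (u ^^^ v))) * n⁻¹ =
        ι (ac (bc w ^^^ bc a ^^^ (bc b ^^^ bc c))) := by
      rw [← e1, ← conj_mul, ← conj_mul (a := t), ← conj_mul (a := t * ι (g v)), T.tr, ea, eb, ec, xx h, xx h,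
        ← map_mul, g_bc hw, g_bc ha, g_bc hb, g_bc hc, ac_mul (bc_lt _ hw) (bc_lt _ ha),
        ac_mul (bc_lt _ hb) (bc_lt _ hc),
        ac_mul (xor_lt (bc_lt _ hw) (bc_lt _ ha)) (xor_lt (bc_lt _ hb) (bc_lt _ hc))]
    have e4 := ac_inj k2 (xor_lt (xor_lt (bc_lt _ hw) (bc_lt _ ha)) (xor_lt (bc_lt _ hb) (bc_lt _ hc)))
      (h.inj (e2.symm.trans e3))
    exact ⟨_, (key3 b hb w hw).1, (key2 w hw a ha b hb c hc (e4 ▸ k3)).trans e4.symm⟩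
  rw [ea, ← this, Nat.xor_assoc, Nat.xor_self, Nat.xor_zero]

theorem Tw.mul {n m : G} {w v : ℕ} (T : Tw ι t n w) (T' : Tw ι t m v) :
    Tw ι t (n * m) (v ^^^ w) :=
  ⟨mul_mem T.mem T'.mem, (key3 _ T'.lt _ T.lt).1, by
    rw [← T.act h nl ci T'.lt, ← T'.tr]; group⟩

theorem Tw.conjA {n : G} {w : ℕ} (T : Tw ι t n w) {a : Sp} (ha : a ∈ A) :
    ∃ l ∈ Lam, n * ι a * n⁻¹ = ι (a * l) := by
  obtain ⟨c, hc, rfl⟩ := A_par.1 ha
  have hu : c % 8 < 8 := Nat.mod_lt _ (by omega)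
  have hw := T.lt
  obtain ⟨k1, k2, k3, -, k4, -⟩ := key3 _ hu w hw
  have h0 := xor_lt (bc_lt _ hu) hc
  have e0 : ac c = g (c % 8) * ac (bc (c % 8) ^^^ c) := by
    rw [g_bc hu, ac_mul (bc_lt _ hu) h0, ← Nat.xor_assoc, Nat.xor_self, Nat.zero_xor]
  have e1 := (mem_Nh.1 T.mem).2 _ ((ac_mem_Lam h0).2 (key4 c hc))
  have e2 : n * ι (g (c % 8)) * n⁻¹ =
      ι (g (c % 8) * ac (bc (c % 8) ^^^ bc w ^^^ bc (c % 8 ^^^ w))) := by
    rw [← h.ttx (ι (g (c % 8))), ← conj_mul, T.tr, T.act h nl ci hu, xx h, g_bc hw, g_bc k1, g_bc hu,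
      ac_mul (bc_lt _ hw) (bc_lt _ k1), ac_mul (bc_lt _ hu) k2, k4]
  refine ⟨_, (ac_mem_Lam k2).2 k3, ?_⟩
  conv_lhs => rw [e0, map_mul, ← conj_mul, e2, e1, mul_inv_cancel_right, ← map_mul]
  rw [mul_assoc, A_comm (ac_mem k2) (ac_mem h0), ← mul_assoc, ← e0]

theorem Tw.sq {n : G} {w : ℕ} (T : Tw ι t n w) (w0 : w ≠ 0) : ∃ q ∈ A, n * n = ι q := by
  have T2 := T.mul h nl ci T
  have e := T2.tr
  rw [Nat.xor_self, g_zero, map_one, mul_one, mul_inv_eq_iff_eq_mul] at e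
  obtain ⟨q, hq, e' | e'⟩ := h.mem_E3.1 (h.cen_E3 e (mem_Nh.1 T2.mem).2)
  · exact ⟨q, hq, e'⟩
  obtain ⟨l, hl, el⟩ := T.conjA h nl ci hq
  have e1 : n * (t * ι q) * n⁻¹ = t * ι q := by rw [← e']; group
  rw [← conj_mul, T.tr, el, mul_assoc, ← map_mul, A_comm hq (Lam_le_A hl), ← mul_assoc] at e1
  have e2 : g w * l = 1 := mul_right_cancel ((h.inj (mul_left_cancel e1)).trans (one_mul q).symm)
  exact absurd (eq_inv_of_mul_eq_one_left e2 ▸ inv_mem hl) (g_nLam T.lt w0)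

theorem Tw.sqA {n : G} {w : ℕ} (T : Tw ι t n w) {q a : Sp} (hq : q ∈ A) (e : n * n = ι q)
    (ha : a ∈ A) : ∃ l ∈ Lam, n * ι a * (n * ι a) = ι (q * l) := by
  obtain ⟨l, hl, el⟩ := T.conjA h nl ci ha
  refine ⟨l, hl, ?_⟩
  calc _ = n * ι a * n⁻¹ * (n * n) * ι a := by group
    _ = _ := by
      rw [el, e, ← map_mul, ← map_mul, A_comm (mul_mem (mul_mem ha (Lam_le_A hl)) hq) ha,
        ← mul_assoc, ← mul_assoc, A_sq ha, one_mul, A_comm hq (Lam_le_A hl)]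

theorem Good.mulA {n : G} {w : ℕ} (T : Good ι t n w) {a : Sp} (ha : a ∈ A) :
    Good ι t (n * ι a) w := by
  obtain ⟨q, hq, e⟩ := T.sq
  obtain ⟨l, hl, el⟩ := T.toTw.sqA h nl ci (Lam_le_A hq) e ha
  exact ⟨T.toTw.mulA h ha, T.ne, _, mul_mem hq hl, el⟩

omit nl ci in
theorem Good.conjP {n : G} {w : ℕ} (T : Good ι t n w) {p : Sp} (hp : p ∈ P3) :
    Good ι t (ι p * n * (ι p)⁻¹) (act p w) := by
  obtain ⟨q, hq, e⟩ := T.sq
  exact ⟨T.toTw.conjP h hp, act_ne_zero p (by have := T.lt; omega) T.ne, _, P3_conj_Lam hp hq, by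
    rw [conj_mul, e, map_mul, map_mul, map_inv]⟩

theorem Good.inv {n : G} {w : ℕ} (T : Good ι t n w) : Good ι t n⁻¹ w := by
  obtain ⟨q, hq, e⟩ := T.sq
  have := T.mulA h nl ci (Lam_le_A (inv_mem hq))
  rwa [map_inv, ← e, mul_inv_rev, mul_inv_cancel_left] at this

theorem Good.uniq {n m : G} {w : ℕ} (T : Good ι t n w) (T' : Good ι t m w) :
    ∃ a ∈ A, m = n * ι a := by
  obtain ⟨a, ha, e | e⟩ := h.mem_E3.1 (h.Nh_uniq T'.mem T.mem (T'.tr.trans T.tr.symm))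
  · exact ⟨a, ha, inv_mul_eq_iff_eq_mul.1 e⟩
  obtain ⟨q, hq, e1⟩ := T.sq
  obtain ⟨q', hq', e2⟩ := T'.sq
  obtain ⟨l, hl, el⟩ := (T.toTw.mulT h).sqA h nl ci (mul_mem (g_mem_A T.lt) (Lam_le_A hq))
    (T.toTw.sqT h e1) ha
  rw [mul_assoc n t, ← inv_mul_eq_iff_eq_mul.1 e, e2, mul_assoc] at el
  exact absurd ((mul_mem_cancel_right (mul_mem hq hl)).1 (h.inj el ▸ hq')) (g_nLam T.lt T.ne)

theorem Tw.good {n : G} {w : ℕ} (T : Tw ι t n w) (w0 : w ≠ 0) :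
    Good ι t n w ∨ Good ι t (n * t) w := by
  obtain ⟨q, hq, e⟩ := T.sq h nl ci w0
  have e' := T.sqT h e
  by_contra hn
  rw [not_or] at hn
  obtain ⟨d, hd, rfl⟩ := A_par.1 hq
  have hw := T.lt
  have hb := xor_lt (bc_lt w hw) hd
  rw [g_bc hw, ac_mul (bc_lt w hw) hd] at e'
  obtain ⟨u, -, v, -, x, -, hi, k1, k2, k3⟩ := key5 w hw w0 d hd
    (fun k => hn.1 ⟨T, w0, _, (ac_mem_Lam hd).2 k, e⟩)
    (fun k => hn.2 ⟨T.mulT h, w0, _, (ac_mem_Lam hb).2 k, e'⟩)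
  obtain ⟨p, hp, p1, p2⟩ := gl_ac hi
  obtain ⟨hd', p3⟩ := p2 d hd
  have T' := T.conjP h hp
  rw [p1 w hw, k1] at T'
  have e2 : ι p * n * (ι p)⁻¹ * (ι p * n * (ι p)⁻¹) = ι (ac (cjc (ap u v x 0 0 0) d)) := by
    rw [conj_mul, e, ← p3, map_mul, map_mul, map_inv]
  have fin : ∀ {m : G} {c : ℕ} {a : Sp}, Tw ι t m w → c < 64 → m * m = ι (ac c) → a ∈ A →
      ι p * n * (ι p)⁻¹ = m * ι a → (c ^^^ cjc (ap u v x 0 0 0) d) % 8 = 0 :=
    fun {m c a} M hc em ha ea => by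
      obtain ⟨l, hl, el⟩ := M.sqA h nl ci (ac_mem hc) em ha
      rw [← ea, e2] at el
      rw [← ac_mem_Lam (xor_lt hc hd'), ← ac_mul hc hd', h.inj el, ← mul_assoc, ac_sq hc, one_mul]
      exact hl
  obtain ⟨a, ha, e3 | e3⟩ := h.mem_E3.1 (h.Nh_uniq T'.mem T.mem (T'.tr.trans T.tr.symm))
  · exact k2 (fin T hd e ha (inv_mul_eq_iff_eq_mul.1 e3))
  · exact k3 (fin (T.mulT h) hb e' ha (by rw [mul_assoc n]; exact inv_mul_eq_iff_eq_mul.1 e3))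

theorem Good.Amul {n : G} {w : ℕ} (T : Good ι t n w) {a : Sp} (ha : a ∈ A) :
    ∃ b ∈ A, ι a * n = n * ι b := by
  obtain ⟨l, hl, el⟩ := (T.inv h nl ci).toTw.conjA h nl ci ha
  exact ⟨_, mul_mem ha (Lam_le_A hl), by rw [← el]; group⟩

omit h nl ci in
/-- **I2** -/
theorem i2 : I2Stmt.{u} := by
  intro _ G _ _ ι t h nl ci base gen i1
  have ex : ∀ w < 8, w ≠ 0 → ∃ n, Good ι t n w := fun w hw w0 => by
    obtain ⟨n, hn, e⟩ := base _ (g_mem_A hw) ((ci _ (g_mem_A hw)).2 ⟨w, hw, rfl⟩)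
    exact (Tw.good h nl ci ⟨hn, hw, e⟩ w0).elim (fun k => ⟨_, k⟩) fun k => ⟨_, k⟩
  obtain ⟨n1, G1⟩ := ex 1 (by omega) (by omega)
  obtain ⟨n2, G2⟩ := ex 2 (by omega) (by omega)
  obtain ⟨s, hs, G3⟩ : ∃ s, (s = 1 ∨ s = t) ∧ Good ι t (n1 * n2 * s) (2 ^^^ 1) := by
    rcases (G1.toTw.mul h nl ci G2.toTw).good h nl ci (by decide) with k | k
    exacts [⟨1, .inl rfl, by rwa [mul_one]⟩, ⟨t, .inr rfl, k⟩]
  have ss : s * s = 1 := by rcases hs with rfl | rfl; exacts [one_mul _, h.tt]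
  have sl : ∀ l, s * ι l = ι l * s := fun l => by rcases hs with rfl | rfl; exacts [by simp, h.ct l]
  have st : s * t = t * s := by rcases hs with rfl | rfl; exacts [by simp, rfl]
  have tn : ∀ {n w}, Good ι t n w → t * n = n * ι (g w) * t := fun {n w} T => by
    rw [mul_assoc, ← h.ct, ← (T.inv h nl ci).tr]; group
  have sn : ∀ {n w}, Good ι t n w → ∃ a ∈ A, s * n = n * ι a * s := fun {n w} T => by
    rcases hs with rfl | rfl
    exacts [⟨1, one_mem _, by simp⟩, ⟨_, g_mem_A T.lt, tn T⟩]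
  have pr : ∀ {n m w v}, Good ι t n w → Good ι t m v → v ≠ w → Good ι t (n * m * s) (v ^^^ w) :=
    fun {n m w v} T T' hne => by
      obtain ⟨x, -, hi⟩ := ((key3 w T.lt v T'.lt).2.2.2.2.2 T.ne).2 T'.ne hne
      obtain ⟨p, hp, rfl, rfl, -⟩ := gl hi
      obtain ⟨a, ha, rfl⟩ := (G1.conjP h hp).uniq h nl ci T
      obtain ⟨b, hb, rfl⟩ := (G2.conjP h hp).uniq h nl ci T'
      obtain ⟨c, hc, ec⟩ := (G2.conjP h hp).Amul h nl ci ha
      have := (G3.conjP h hp).mulA h nl ci (mul_mem hc hb)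
      rw [act_xor p (by omega) (by omega)] at this
      convert this using 1
      calc _ = ι p * n1 * (ι p)⁻¹ * (ι a * (ι p * n2 * (ι p)⁻¹)) * ι b * s := by group
        _ = ι p * (n1 * n2) * (ι (p⁻¹ * (c * b)) * s) := by
          rw [ec, map_mul, map_mul, map_inv]; group
        _ = _ := by rw [← sl, map_mul, map_inv]; group
  let K : Subgroup G :=
    { carrier := {k | k ∈ A.map ι ∨ ∃ w, Good ι t (k * s) w}
      one_mem' := .inl (one_mem _)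
      mul_mem' := by
        rintro k k' (⟨a, ha, rfl⟩ | ⟨w, T⟩) (⟨b, hb, rfl⟩ | ⟨v, T'⟩)
        · exact .inl (mul_mem (mem_map_of_mem ι ha) (mem_map_of_mem ι hb))
        · obtain ⟨c, hc, ec⟩ := T'.Amul h nl ci ha
          exact .inr ⟨v, by rw [mul_assoc, ec]; exact T'.mulA h nl ci hc⟩
        · exact .inr ⟨w, by rw [mul_assoc, ← sl, ← mul_assoc]; exact T.mulA h nl ci hb⟩
        obtain ⟨a, ha, ea⟩ := sn T'
        have e : k * k' = k * s * (k' * s) * ι a := by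
          calc k * k' = k * (s * s) * k' * (s * s) := by rw [ss, mul_one, mul_one]
            _ = k * s * (s * (k' * s)) * s := by group
            _ = k * s * (k' * s) * ι a * (s * s) := by rw [ea]; group
            _ = _ := by rw [ss, mul_one]
        by_cases hv : v = w
        · subst hv
          obtain ⟨b, hb, eb⟩ := (T.inv h nl ci).uniq h nl ci T'
          exact .inl ⟨b * a, mul_mem hb ha, by rw [e, eb, mul_inv_cancel_left, map_mul]⟩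
        · exact .inr ⟨_, by
            rw [e, mul_assoc, ← sl, ← mul_assoc]; exact (pr T T' hv).mulA h nl ci ha⟩
      inv_mem' := by
        rintro k (hk | ⟨w, T⟩)
        · exact .inl (inv_mem hk)
        obtain ⟨a, ha, ea⟩ := sn (T.inv h nl ci)
        refine .inr ⟨w, ?_⟩
        have := (T.inv h nl ci).mulA h nl ci ha
        rwa [← mul_inv_eq_iff_eq_mul.2 ea, inv_eq_of_mul_eq_one_right ss, mul_inv_rev,
          mul_inv_cancel_left] at this }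
  refine gen K ?_ ?_ ?_ fun y hy c => ?_
  · rintro k (⟨a, ha, rfl⟩ | ⟨w, T⟩)
    · exact .inl ⟨a, ha, by rw [h.ct, mul_inv_cancel_right]⟩
    · refine .inr ⟨w, ?_⟩
      have := T.mulA h nl ci (g_mem_A T.lt)
      rwa [← mul_inv_eq_iff_eq_mul.2 (tn T), h.tinv, mul_assoc t, mul_assoc k, st, ← mul_assoc,
        ← mul_assoc, ← congrArg (t * k * · * s) h.tinv] at this
  · rintro p hp k (⟨a, ha, rfl⟩ | ⟨w, T⟩)
    · exact .inl ⟨_, P3_conj_A (T0_le_P3 hp) ha, by simp⟩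
    · refine .inr ⟨act p w, ?_⟩
      have := T.conjP h (T0_le_P3 hp)
      rwa [← mul_assoc, mul_assoc _ s, ← map_inv, sl, map_inv, ← mul_assoc] at this
  · rintro k (⟨a, -, rfl⟩ | ⟨w, T⟩) e
    · exact ⟨a, rfl⟩
    · have := T.tr
      rw [mul_assoc k, st, ← mul_assoc, e, mul_assoc t, mul_inv_cancel_right, left_eq_mul,
        ← map_one ι] at this
      exact absurd (h.inj this ▸ one_mem Lam) (g_nLam T.lt T.ne)
  · have sN : s ∈ Nh ι t := by rcases hs with rfl | rfl; exacts [one_mem _, t_Nh h]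
    have hN : K ⊔ T0.map ι ⊔ zpowers t ≤ NE ι t := by
      refine sup_le (sup_le ?_ ?_) (zpowers_le.2 (t_Nh h).1)
      · rintro k (⟨a, ha, rfl⟩ | ⟨w, T⟩)
        exacts [(A_Nh h ha).1, ((mul_mem_cancel_right sN).1 T.mem).1]
      · rintro _ ⟨p, hp, rfl⟩
        exact h.P3_NE (T0_le_P3 hp)
    obtain ⟨w, hw, rfl⟩ := ex_w h nl ci (i1 y (hN hy) c) c
    by_cases w0 : w = 0
    · exact ⟨1, one_mem _, by simp [w0, g_zero]⟩
    obtain ⟨n, T⟩ := ex w hw w0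
    exact ⟨n * s, .inr ⟨w, by rwa [mul_assoc, ss, mul_one]⟩, by
      rw [← T.tr, mul_assoc n s, st]; group⟩

set_option linter.all false in
theorem eqns_S6I2 : True := by
  trivial

end Cfsg.Agent.H83.S6I
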