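import Cfsg.Agent.H18.RfSc
import Cfsg.Agent.H43.RfIrr

/-! Project RF, piece TK: an element of order three acting without fixed points on `Q / Z`. -/

set_option autoImplicit false

namespace Cfsg.Agent.H83.RfTk

open Cfsg Subgroup Cfsg.Agent.H18.MaxOff Cfsg.Agent.H18.Rf
open Cfsg.Agent.H49 (XS LX)

universe u

theorem conj_z {G : Type u} [Group G] {z g n : G} (hg : g ∈ C1 z) (hn : n ∈ zpowers z) :
    g * n * g⁻¹ = n := by
  obtain ⟨k, rfl⟩ := hn
  have : Commute g z := mem_centralizer_singleton_iff.1 hg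
  change g * z ^ k * g⁻¹ = z ^ k
  rw [(this.zpow_right k).eq, mul_inv_cancel_right]

theorem pkg {G : Type u} [Group G] (z : G) : ∃ (H : Type u) (_ : Group H) (π : C1 z →* H),
    ∀ a : C1 z, π a = 1 ↔ (a : G) ∈ zpowers z := by
  have : ((zpowers z).subgroupOf (C1 z)).Normal := ⟨fun n hn g => by
    rw [mem_subgroupOf] at hn ⊢
    change (g : G) * n * (g : G)⁻¹ ∈ _
    rwa [conj_z g.2 hn]⟩
  exact ⟨_, _, QuotientGroup.mk' ((zpowers z).subgroupOf (C1 z)), fun a => by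
    rw [QuotientGroup.mk'_apply, QuotientGroup.eq_one_iff, mem_subgroupOf]⟩

theorem card_mul_le {G : Type u} [Group G] [Finite G] {A B Q : Subgroup G} (hA : A ≤ Q)
    (hB : B ≤ Q) : Nat.card A * Nat.card B ≤ Nat.card ↥(A ⊓ B) * Nat.card Q := by
  have h1 : Nat.card A * A.relIndex Q = Nat.card Q := by
    rw [← Subgroup.card_mul_index (A.subgroupOf Q),
      Nat.card_congr (subgroupOfEquivOfLe hA).toEquiv]
    rfl
  have h2 : Nat.card ↥(A ⊓ B) * A.relIndex B = Nat.card B := by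
    rw [← Subgroup.card_mul_index ((A ⊓ B).subgroupOf B),
      Nat.card_congr (subgroupOfEquivOfLe (inf_le_right : A ⊓ B ≤ B)).toEquiv,
      ← inf_relIndex_right A B]
    rfl
  have h3 : A.relIndex B ≤ A.relIndex Q := relIndex_le_of_le_right hB FiniteIndex.index_ne_zero
  rw [← h1, ← h2]
  calc _ = Nat.card ↥(A ⊓ B) * (Nat.card A * A.relIndex B) := by ring
    _ ≤ _ := Nat.mul_le_mul_left _ (Nat.mul_le_mul_left _ h3)

theorem tk : TkStmt.{u} := by
  intro G _ _ Q z ω h hωQ hωz ho hfp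
  obtain ⟨H, _, π, hπ⟩ := pkg z
  lift ω to C1 z using hωz
  have hQ : Q ≤ C1 z := h.le_centralizer
  have hZ : C1 z ≤ NN (zpowers z) := fun g hg =>
    mem_norm_of_le fun a ha => by rwa [conj_z hg ha]
  have cm : ∀ x y : C1 z, (x : G) * y * (x : G)⁻¹ * (y : G)⁻¹ ∈ zpowers z ↔
      Commute (π x) (π y) := fun x y => by
    rw [← commutatorElement_eq_one_iff_commute, ← map_commutatorElement, hπ]
    rfl
  have mem : ∀ x y : C1 z, (x : G) ∈ Q ⊓ CM {(y : G)} (zpowers z) ↔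
      (x : G) ∈ Q ∧ Commute (π x) (π y) := fun x y => by
    rw [mem_inf, mem_CM, ← cm]
    simp [hZ x.2]
  have ab : ∀ x y : C1 z, (x : G) ∈ Q → (y : G) ∈ Q → Commute (π x) (π y) :=
    fun x y hx hy => (cm x y).1 (h.commutator_mem hx hy)
  have fp : ∀ x : C1 z, (x : G) ∈ Q → Commute (π x) (π ω) → (x : G) ∈ zpowers z :=
    fun x hx hc => hfp ((mem x ω).2 ⟨hx, hc⟩)
  have w3 : (ω : G) ^ 3 = 1 := ho ▸ pow_orderOf_eq_one _
  have w3' : (ω : G) * ω * ω = 1 := by rw [← w3, pow_succ, pow_two]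
  have W3 : π ω * π ω * π ω = 1 := by
    rw [← map_mul, ← map_mul, show ω * ω * ω = 1 from Subtype.ext w3', map_one]
  have cQ : ∀ g ∈ NN Q, ∀ x ∈ Q, g * x * g⁻¹ ∈ Q := fun g hg x hx =>
    (mem_normalizer_iff.1 hg x).1 hx
  refine ⟨fun y hyQ hyz hq => ?_, fun y hyQ hyz hq => ?_, fun B hz hB hω => ?_, fun x hx hc => ?_⟩
  · lift y to C1 z using hyz
    have h1 : cj (ω : G) (Q ⊓ CM {(y : G)} (zpowers z)) ≤ Q := by
      rintro _ ⟨a, ha, rfl⟩
      exact cQ _ hωQ a ha.1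
    have h2 := card_mul_le (inf_le_left : Q ⊓ CM {(y : G)} (zpowers z) ≤ Q) h1
    have h3 : Q ⊓ CM {(y : G)} (zpowers z) ⊓ cj (ω : G) (Q ⊓ CM {(y : G)} (zpowers z)) ≤
        zpowers z := by
      rintro x ⟨hx, hx'⟩
      lift x to C1 z using hQ hx.1
      obtain ⟨k1, k2⟩ := (mem x y).1 hx
      have k3 := ((mem (ω⁻¹ * x * ω) y).1 (mem_cj.1 hx')).2
      have k4 := ab x (y * ω * y⁻¹ * ω) k1 hq
      simp only [map_mul, map_inv] at k3 k4
      have k5 : Commute (π x) (π ω * π y * (π ω)⁻¹) := by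
        have := k3.eq
        calc π x * (π ω * π y * (π ω)⁻¹) = π ω * ((π ω)⁻¹ * π x * π ω * π y) * (π ω)⁻¹ := by group
          _ = _ := by rw [this]; group
      have k6 := (k5.mul_right k2.inv_right).mul_right k4
      have e : π ω * π y * (π ω)⁻¹ * (π y)⁻¹ * (π y * π ω * (π y)⁻¹ * π ω) = π ω * π ω := by group
      rw [e, eq_inv_of_mul_eq_one_left W3, Commute.inv_right_iff] at k6
      exact fp x k1 k6
    have h4 := card_le_of_le h3
    rw [h.card_Z] at h4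
    rw [card_cj, ← pow_two] at h2
    exact h2.trans (Nat.mul_le_mul_right _ h4)
  · lift y to C1 z using hyz
    refine ⟨mem_norm_of_le fun x hx => ?_, fun t ht => ?_⟩
    · lift x to C1 z using hQ hx.1
      obtain ⟨k1, k2⟩ := (mem x y).1 hx
      refine (mem (ω * x * ω⁻¹) y).2 ⟨cQ _ hωQ _ k1, ?_⟩
      have k3 := (ab x (ω⁻¹ * (y * ω * y⁻¹ * ω⁻¹) * ω⁻¹⁻¹) k1 (cQ _ (inv_mem hωQ) _ hq)).mul_right k2
      simp only [map_mul, map_inv] at k3 ⊢
      have k4 : π x * ((π ω)⁻¹ * π y * π ω) = ((π ω)⁻¹ * π y * π ω) * π x := by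
        have e : (π ω)⁻¹ * (π y * π ω * (π y)⁻¹ * (π ω)⁻¹) * (π ω)⁻¹⁻¹ * π y =
          (π ω)⁻¹ * π y * π ω := by group
        rw [← e]
        exact k3.eq
      calc π ω * π x * (π ω)⁻¹ * π y = π ω * (π x * ((π ω)⁻¹ * π y * π ω)) * (π ω)⁻¹ := by group
        _ = _ := by rw [k4]; group
    · lift t to C1 z using hQ ht
      have k1 := (ab (y * (ω * t * ω⁻¹)⁻¹ * y⁻¹) (y * ω * y⁻¹ * ω⁻¹)
        (cQ _ hyQ _ (inv_mem (cQ _ hωQ _ ht))) hq).eq
      refine (hπ ((ω * (t * y * t⁻¹ * y⁻¹) * ω⁻¹)⁻¹ *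
        ((ω * t * ω⁻¹) * y * (ω * t * ω⁻¹)⁻¹ * y⁻¹))).1 ?_
      simp only [map_mul, map_inv] at k1 ⊢
      rw [inv_mul_eq_one]
      calc _ = π ω * π t * (π ω)⁻¹ * (π y * π ω * (π y)⁻¹ * (π ω)⁻¹)⁻¹ *
            (π y * (π ω * π t * (π ω)⁻¹)⁻¹ * (π y)⁻¹ * (π y * π ω * (π y)⁻¹ * (π ω)⁻¹)) := by group
        _ = _ := by rw [k1]; group
  · have : Fact (Nat.Prime 3) := ⟨Nat.prime_three⟩
    have key : ∀ B : Subgroup G, z ∈ B → B ≤ Q → (ω : G) ∈ NN B → Nat.card B % 3 = 2 := by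
      intro B hz hB hω
      have h1 := H43.RfIrr.card_modEq w3 hω
      have h2 : B ⊓ C1 (ω : G) = zpowers z := by
        refine le_antisymm (fun x hx => ?_) (zpowers_le.2 ⟨hz, ?_⟩)
        · lift x to C1 z using hQ (hB hx.1)
          have e : x * ω = ω * x := Subtype.ext (mem_centralizer_singleton_iff.1 hx.2)
          exact fp x (hB hx.1) (Commute.map e π)
        · exact mem_centralizer_singleton_iff.2 (mem_centralizer_singleton_iff.1 ω.2).symm
      rw [h2, h.card_Z] at h1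
      exact h1
    have h1 := key B hz hB hω
    have h2 := key Q h.mem le_rfl hωQ
    have h3 : Nat.card B * B.relIndex Q = Nat.card Q := by
      rw [← Subgroup.card_mul_index (B.subgroupOf Q),
        Nat.card_congr (subgroupOfEquivOfLe hB).toEquiv]
      rfl
    rw [← h3, Nat.mul_mod, h1] at h2
    omega
  · lift x to C1 z using hQ hx
    refine (h.sq hx).resolve_right fun hz => ?_
    have h1 := cQ _ hωQ _ hx
    have h2 := cQ _ hωQ _ h1
    have h3 : ((x * (ω * x * ω⁻¹) * (ω * (ω * x * ω⁻¹) * ω⁻¹) : C1 z) : G) ∈ zpowers z := by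
      refine fp _ (mul_mem (mul_mem hx h1) h2) ?_
      have k1 := (ab x ((ω * x * ω⁻¹) * (ω * (ω * x * ω⁻¹) * ω⁻¹)) hx (mul_mem h1 h2)).eq
      simp only [map_mul, map_inv] at k1 ⊢
      have e2 : (π ω)⁻¹ * (π ω)⁻¹ = π ω := by
        rw [← mul_inv_rev, eq_inv_of_mul_eq_one_left W3, inv_inv]
      calc π x * (π ω * π x * (π ω)⁻¹) * (π ω * (π ω * π x * (π ω)⁻¹) * (π ω)⁻¹) * π ω =
            π x * (π ω * π x * (π ω)⁻¹ * (π ω * (π ω * π x * (π ω)⁻¹) * (π ω)⁻¹)) * π ω := by group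
        _ = π ω * π x * π ω * π x * ((π ω)⁻¹ * (π ω)⁻¹) * π x * π ω := by rw [k1]; group
        _ = π ω * π x * π ω * π x * π ω * π x * ((π ω)⁻¹ * (π ω)⁻¹) := by rw [e2]
        _ = _ := by group
    have conjz : ∀ a : G, a * a = z → ((ω : G) * a * (ω : G)⁻¹) * ((ω : G) * a * (ω : G)⁻¹) = z :=
      fun a ha => by
        refine Eq.trans ?_ (conj_z ω.2 (mem_zpowers z))
        calc _ = (ω : G) * (a * a) * (ω : G)⁻¹ := by group
          _ = _ := by rw [ha]
    have h4 := conjz _ hz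
    have h5 := conjz _ h4
    change (x : G) * (ω * x * (ω : G)⁻¹) * (ω * (ω * x * (ω : G)⁻¹) * (ω : G)⁻¹) ∈ zpowers z at h3
    generalize (ω : G) * (ω * x * (ω : G)⁻¹) * (ω : G)⁻¹ = c at *
    generalize (ω : G) * x * (ω : G)⁻¹ = b at *
    generalize (x : G) = a at *
    have h6 : a * b * (a * b) = 1 := by
      calc a * b * (a * b) = a * (b * a) * b := by group
        _ = a * a * (b * b) := by rw [← hc]; group
        _ = 1 := by rw [hz, h4, h.zz]
    have h7 : c = a * b * (a * b * c) := by rw [← mul_assoc, h6, one_mul]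
    have h8 := conj_z (hQ (mul_mem hx h1)) h3
    have h9 : a * b * c * (a * b * c) = 1 := by
      rcases h.mem_Z.1 h3 with e | e <;> rw [e]
      exacts [one_mul _, h.zz]
    apply h.ne
    rw [← h5]
    generalize a * b * c = d at h7 h8 h9
    rw [h7]
    calc a * b * d * (a * b * d) = (a * b * d * (a * b)⁻¹) * (a * b * (a * b)) * d := by group
      _ = 1 := by rw [h8, h6, mul_one, h9]

set_option linter.all false in
theorem eqns_RfTk : True := by
  trivial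

end Cfsg.Agent.H83.RfTk
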