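import Cfsg.Agent.H45.OnDefs

/-!
# Project ON, piece II: the double count over the points of a line
-/

set_option autoImplicit false

namespace Cfsg.Agent.H83.OnIi

open Cfsg.Agent.H45.On

universe u v

section
variable {G : Type u} {Ω : Type v} [Group G] [MulAction G Ω] {S : S0 G Ω} {L : S.Li}

theorem mem_bl (hk : L.LK) {z x : Ω} {M : Subgroup G} {g : G} (hM : L.Cp z M) (hg : g ∈ M)
    (hx : ¬ L.Lk M x) : g • x ∈ L.Bl z x := by
  rintro U' hU' ⟨M', hM', le⟩ ox
  have ne : M ≠ M' := by rintro rfl; exact hx ⟨U', hU', le, ox⟩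
  have e : cj g U' = U' := cj_of_comm fun m hm => S.comm hM.1 hM'.1 ne g hg m (le hm)
  exact e ▸ hk.on g ox

theorem uniq (hk : L.LK) (hs : L.LS) {U M M' : Subgroup G} {z z' x : Ω} {g : G} (hU : L.Ln U)
    (hg : g ∈ U) (hM : L.Cp z M) (hM' : L.Cp z' M') (le : U ≤ M) (le' : U ≤ M') (n : x ≠ z)
    (n' : x ≠ z') (hx : ¬ L.Lk M x) (hx' : ¬ L.Lk M' x) (hm : g • x ≠ x) : z = z' := by
  by_contra ne
  have r : ∀ a b, b ∈ L.Bl a b := fun a b _ _ _ h => h
  have l : ∀ a b, a ∈ L.Bl a b := fun a b _ _ h _ => h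
  have e1 := hs z x x (g • x) n.symm hm.symm (r _ _) (mem_bl hk hM (le hg) hx)
  have e2 := hs z' x x (g • x) n'.symm hm.symm (r _ _) (mem_bl hk hM' (le' hg) hx')
  have e3 := hs z x z z' n.symm ne (l _ _) (by rw [← e1, e2]; exact l _ _)
  have h : x ∈ L.Bl z z' := by rw [e3]; exact r _ _
  exact hm (hk.fx (h U hU ⟨M, hM, le⟩ ⟨M', hM', le'⟩) g hg)

end

theorem ii (oc : OcStmt.{u, v}) : IiStmt.{u, v} := by
  intro G Ω _ _ _ _ S L hk hs U z₀ w₀ hU hne g hg
  classical
  haveI := Fintype.ofFinite Ω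
  have ex : ∀ z : Ω, ∃ M, L.On U z → L.Cp z M ∧ U ≤ M := fun z => by
    by_cases h : L.On U z
    · obtain ⟨M, h⟩ := h
      exact ⟨M, fun _ => h⟩
    · exact ⟨⊥, fun h' => (h h').elim⟩
  choose M hM using ex
  let A : Finset Ω := Finset.univ.filter fun z => L.On U z
  let R : Ω → Ω → Prop := fun z x => x ≠ z ∧ ¬ L.Lk (M z) x
  have hA : L.be U = A.card := by
    rw [S0.Li.be, ← Set.ncard_coe_finset]; congr 1; ext z; simp [A]
  have hF : {x : Ω | g • x = x}.ncard = (Finset.univ.filter fun x : Ω => g • x = x).card := by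
    rw [← Set.ncard_coe_finset]; congr 1; ext z; simp
  have h1 : ∀ z ∈ A, L.kk z₀ * (Finset.univ.filter (R z)).card =
      (L.kk z₀ - L.mu z₀ w₀) * (Nat.card Ω - 1) := fun z hz => by
    have hz' := hM z (Finset.mem_filter.1 hz).2
    obtain ⟨w, hw⟩ : ∃ w, z ≠ w := by
      by_cases h : z = z₀
      · exact ⟨w₀, h ▸ hne⟩
      · exact ⟨z₀, h⟩
    have := oc L hk z w (M z) hw hz'.1
    rw [hk.kk_eq z z₀, hk.mu_eq hw hne] at this
    rw [← this, ← Set.ncard_coe_finset]; congr 2; ext x; simp [R]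
  have h2 : ∑ z ∈ A, (Finset.univ.filter (R z)).card =
      ∑ x : Ω, (A.filter fun z => R z x).card := by
    simp only [Finset.card_filter]
    exact Finset.sum_comm
  have h3 : ∀ x : Ω, (A.filter fun z => R z x).card ≤
      (if ¬ g • x = x then 1 else 0) + A.card * if g • x = x then 1 else 0 := fun x => by
    by_cases h : g • x = x
    · simpa [h] using Finset.card_filter_le _ _
    · simp only [h, not_false_eq_true, if_true, if_false, mul_zero, add_zero]
      refine Finset.card_le_one.2 fun z hz z' hz' => ?_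
      obtain ⟨a, b⟩ := Finset.mem_filter.1 hz
      obtain ⟨a', b'⟩ := Finset.mem_filter.1 hz'
      have c := hM z (Finset.mem_filter.1 a).2
      have c' := hM z' (Finset.mem_filter.1 a').2
      exact uniq hk hs hU hg c.1 c'.1 c.2 c'.2 b.1 b'.1 b.2 b'.2 h
  have h4 := Finset.sum_le_sum fun x (_ : x ∈ Finset.univ) => h3 x
  rw [← h2, Finset.sum_add_distrib, ← Finset.mul_sum, ← Finset.card_filter,
    ← Finset.card_filter] at h4
  have h5 := Finset.card_filter_add_card_filter_not (s := (Finset.univ : Finset Ω))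
    fun x : Ω => g • x = x
  rw [Finset.card_univ, ← Nat.card_eq_fintype_card] at h5
  rw [hA, hF, mul_assoc, ← smul_eq_mul, ← Finset.sum_const, ← Finset.sum_congr rfl h1,
    ← Finset.mul_sum]
  refine Nat.mul_le_mul_left _ (h4.trans (le_of_eq ?_))
  congr 1
  omega

set_option linter.all false in
theorem eqns_OnIi : True := by
  trivial

end Cfsg.Agent.H83.OnIi
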