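import Cfsg.Agent.H18.RfDefs

/-! Project RF, piece FC: the normaliser of a weakly closed abelian subgroup controls fusion. -/

set_option autoImplicit false

namespace Cfsg.Agent.H83.RfFc

open Cfsg Subgroup Cfsg.Agent.H18.MaxOff Cfsg.Agent.H18.Rf
open scoped Pointwise

universe u

theorem comm_of_sq {G : Type u} [Group G] {V : Subgroup G} (h : ∀ v ∈ V, v * v = 1) {a b : G}
    (ha : a ∈ V) (hb : b ∈ V) : a * b = b * a := by
  have h1 := h _ (V.mul_mem ha hb)
  have h2 := h a ha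
  have h3 := h b hb
  calc a * b = a * ((a * b) * (a * b)) * b := by rw [h1, mul_one]
    _ = (a * a) * b * a * (b * b) := by group
    _ = b * a := by rw [h2, h3]; group

theorem pg_of_sq {G : Type u} [Group G] {V K : Subgroup G} (h : ∀ v ∈ V, v * v = 1) :
    IsPGroup 2 (V.subgroupOf K) := fun x =>
  ⟨1, Subtype.ext (Subtype.ext (by simpa [pow_two] using h _ x.2))⟩

theorem fc : FcStmt.{u} := by
  intro G _ _ V hV hW B g hB
  have := Fact.mk Nat.prime_two
  let K : Subgroup G := centralizer B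
  have h1 : V ≤ K := fun v hv => mem_centralizer_iff.2 fun b hb => comm_of_sq hV (hB b hb).1 hv
  have h2 : cj g⁻¹ V ≤ K := fun x hx => mem_centralizer_iff.2 fun b hb => by
    have := comm_of_sq hV (hB b hb).2 (mem_cj.1 hx)
    calc b * x = g⁻¹ * (g * b * g⁻¹ * (g⁻¹⁻¹ * x * g⁻¹)) * g := by group
      _ = x * b := by rw [this]; group
  obtain ⟨P, hP⟩ := (pg_of_sq (K := K) hV).exists_le_sylow
  obtain ⟨P', hP'⟩ := (pg_of_sq (K := K) (sq_cj hV g⁻¹)).exists_le_sylow
  obtain ⟨k, hk⟩ := MulAction.exists_smul_eq K P' P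
  have h3 : V ≤ (P : Subgroup K).map K.subtype := fun v hv => ⟨⟨v, h1 hv⟩, hP hv, rfl⟩
  have h4 := hW.le_norm (P.isPGroup'.map K.subtype) h3
  have h5 : cj ((k : G) * g⁻¹) V ≤ (P : Subgroup K).map K.subtype := by
    rw [← cj_cj]
    rintro _ ⟨y, hy, rfl⟩
    refine ⟨k * ⟨y, h2 hy⟩ * k⁻¹, ?_, rfl⟩
    rw [← hk, SetLike.mem_coe, Sylow.coe_subgroup_smul, mem_pointwise_smul_iff_inv_smul_mem]
    have : (MulAut.conj k)⁻¹ • (k * ⟨y, h2 hy⟩ * k⁻¹) = (⟨y, h2 hy⟩ : K) := by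
      simp [mul_assoc]
    rw [this]
    exact hP' hy
  have h6 := mem_norm_iff.2 (hW _ (h5.trans h4))
  refine ⟨_, inv_mem h6, fun b hb => ?_⟩
  have h7 := mem_centralizer_iff.1 k.2 b hb
  calc g * b * g⁻¹ = g * (k : G)⁻¹ * ((k : G) * b) * g⁻¹ := by group
    _ = _ := by rw [← h7]; group

set_option linter.all false in
theorem eqns_RfFc : True := by
  trivial

end Cfsg.Agent.H83.RfFc
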