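import Cfsg.Agent.H25.UGDefs

/-!
Project UG, piece GEN: a group with a transvection which is transitive on isotropic points and
induces the squares on each of them contains the special unitary group.
-/

set_option autoImplicit false

namespace Cfsg.Agent.H83.UgGen

open Cfsg Module Polynomial Cfsg.Agent.H31 Cfsg.Agent.H77.Sg Cfsg.Agent.H25.UG
open Cfsg.Agent.H53.Uw (St fx Sk)

universe u

theorem two_sq {K : Type u} [Field K] [Finite K] (x : K) : ∃ a b : K, a ^ 2 + b ^ 2 = x := by
  haveI := Fintype.ofFinite K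
  by_cases h2 : ringChar K = 2
  · obtain ⟨a, ha⟩ := FiniteField.isSquare_of_char_two h2 x
    exact ⟨a, 0, by rw [ha]; ring⟩
  · obtain ⟨a, b, hab⟩ := FiniteField.exists_root_sum_quadratic (R := K) (f := X ^ 2)
      (g := X ^ 2 - C x) (degree_X_pow 2) (degree_X_pow_sub_C (by decide) _)
      (FiniteField.odd_card_of_char_ne_two h2)
    refine ⟨a, b, ?_⟩
    simp only [eval_pow, eval_X, eval_sub, eval_C] at hab
    linear_combination hab

theorem two_sq_fixed {E : Type u} [Field E] [Finite E] {σ : E →+* E} {r : E} (hr : σ r = r) :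
    ∃ a b : E, σ a = a ∧ σ b = b ∧ a ^ 2 + b ^ 2 = r := by
  obtain ⟨a, b, hab⟩ := two_sq (K := fixedField σ) ⟨r, hr⟩
  exact ⟨a, b, a.2, b.2, by simpa using congrArg Subtype.val hab⟩

theorem gen : GenStmt.{u} := by
  intro E V _ _ _ _ _ σ B q G S h7 hG hT hI
  haveI : FiniteDimensional E V := Module.finite_of_finrank_pos (by omega)
  obtain ⟨w, c, hw, hc, w0, c0, hwc⟩ := hT
  have h := S.herm
  -- transvections with parameter `c * s ^ 2`
  have h1 : ∀ s : E, ∀ hs : σ s = s, ∀ hcs : c * s ^ 2 + σ (c * s ^ 2) = 0,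
      tv B w (c * s ^ 2) hw hcs ∈ G := by
    intro s hs hcs
    by_cases s0 : s = 0
    · have e : c * s ^ 2 = 0 := by rw [s0]; ring
      rw [tv_congr hw hcs rfl e, tv_zero]
      exact G.one_mem
    obtain ⟨a, ha⟩ := h.inv.exists_norm_eq hs
    have a0 : a ≠ 0 := by
      rintro rfl
      exact s0 (by rw [← ha]; simp)
    obtain ⟨g, hg, hgw⟩ := hI.2 w hw a a0
    have h2 := G.mul_mem (G.mul_mem hg hwc) (G.inv_mem hg)
    rw [tv_conj (hG hg) hw hc, tv_congr _ hc hgw rfl, h.toIsHermSymm.tv_smul hw hc] at h2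
    have e : c * (a ^ 2 * σ (a ^ 2)) = c * s ^ 2 := by
      rw [← ha, map_pow]; ring
    rwa [tv_congr hw _ rfl e] at h2
  have h3 : HasTv B G w := by
    intro d hw' hd
    have hσc : σ c = -c := by linear_combination hc
    have hσd : σ d = -d := by linear_combination hd
    have hr : σ (d / c) = d / c := by rw [map_div₀, hσc, hσd, neg_div_neg_eq]
    obtain ⟨a, b, ha, hb, hab⟩ := two_sq_fixed hr
    have ka : c * a ^ 2 + σ (c * a ^ 2) = 0 := skew_mul_fixed hc (by rw [map_pow, ha])
    have kb : c * b ^ 2 + σ (c * b ^ 2) = 0 := skew_mul_fixed hc (by rw [map_pow, hb])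
    have h4 := G.mul_mem (h1 a ha ka) (h1 b hb kb)
    rw [tv_mul] at h4
    have e : c * a ^ 2 + c * b ^ 2 = d := by
      rw [← mul_add, hab]; field_simp
    rwa [tv_congr hw _ rfl e] at h4
  refine h.sisom_le_of_hasTv (fun v => ?_) (Or.inl (by omega))
  intro d hv hd
  by_cases v0 : v = 0
  · rw [tv_congr hv hd v0 rfl]
    exact hasTv_zero G _ _ _
  obtain ⟨g, hg, a, hga⟩ := hI.1 w v w0 v0 hw hv
  have a0 : a ≠ 0 := by
    rintro rfl
    rw [zero_smul] at hga
    exact w0 (g.map_eq_zero_iff.mp hga)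
  have h5 := h3.map (hG hg) hg
  rw [hga] at h5
  exact HasTv.of_smul h.toIsHermSymm a0 h5 d hv hd

set_option linter.all false in
theorem eqns_UgGen : True := by
  trivial

end Cfsg.Agent.H83.UgGen
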